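import Mathlib
import Cfsg.Agent.Lib.Helper81.CS3.NGDefs

/-!
# CS3 (S4284), part NG, package [STEPB]

If `C(w)` is abelian of index `mn` and `x ∈ C(w)` has class size `m`, then every conjugate of
`x` lies in `C(w)`.
-/

set_option autoImplicit false

namespace Cfsg.Agent.Lib.Helper89.CS3

open Cfsg.Agent.Lib.Helper81.CS3

universe u

section aux

variable {G : Type u} [Group G]

theorem sb_mem_cent {w g : G} : g ∈ Subgroup.centralizer ({w} : Set G) ↔ Commute g w := by
  rw [Subgroup.mem_centralizer_iff]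
  constructor
  · intro h
    exact (h w rfl).symm
  · intro h y hy
    rw [Set.mem_singleton_iff] at hy
    rw [hy]
    exact h.symm.eq

/-- Two elements of class size `k` one of which lies in the abelian centralizer of the other
have the same centralizer. -/
theorem sb_cent_eq [Finite G] {w v : G} {k : ℕ} (hk : k ≠ 0) (hw : idx w = k) (hab : AbC w)
    (hv : Commute v w) (hiv : idx v = k) (g : G) : Commute g v ↔ Commute g w := by
  have hle : Subgroup.centralizer ({w} : Set G) ≤ Subgroup.centralizer ({v} : Set G) := by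
    intro y hy
    rw [sb_mem_cent] at hy ⊢
    exact hab y v hy hv
  have h1 := Subgroup.card_mul_index (Subgroup.centralizer ({w} : Set G))
  have h2 := Subgroup.card_mul_index (Subgroup.centralizer ({v} : Set G))
  have hw' : (Subgroup.centralizer ({w} : Set G)).index = k := hw
  have hv' : (Subgroup.centralizer ({v} : Set G)).index = k := hiv
  rw [hw'] at h1
  rw [hv'] at h2
  have hc : Nat.card (Subgroup.centralizer ({v} : Set G)) =
      Nat.card (Subgroup.centralizer ({w} : Set G)) := by
    have h3 : Nat.card (Subgroup.centralizer ({v} : Set G)) * k =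
        Nat.card (Subgroup.centralizer ({w} : Set G)) * k := by rw [h1, h2]
    exact Nat.eq_of_mul_eq_mul_right (Nat.pos_of_ne_zero hk) h3
  have heq := Subgroup.eq_of_le_of_card_ge hle (le_of_eq hc)
  rw [← sb_mem_cent, ← sb_mem_cent, heq]

end aux

/-- [STEPB] -/
theorem pkgStepB (hSq : PkgSq.{u}) (hStr : PkgStr.{u}) (hSyl : PkgSyl.{u}) : PkgStepB.{u} := by
  intro G _ _ m n hyp hNG w hw hab x g hxw hx
  classical
  have hm1 : 1 < m := hyp.2.1
  have hn1 : 1 < n := hyp.2.2.1
  have hcopmn : m.Coprime n := hyp.2.2.2.1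
  have hmn0 : m * n ≠ 0 := Nat.mul_ne_zero (by omega) (by omega)
  have hKidx : (Subgroup.centralizer ({x} : Set G)).index = m := hx
  -- Step 1: for every prime `s ∣ m` a Sylow `s`-subgroup normalizes `C(w)`
  have step1 : ∀ s : ℕ, s.Prime → s ∣ m →
      ∃ S : Sylow s G, (S : Subgroup G) ≤ (Subgroup.normalizer ((Subgroup.centralizer ({w} : Set G) : Subgroup G) : Set G)) := by
    intro s hs hsm
    have : Fact s.Prime := ⟨hs⟩
    obtain ⟨b, hbPM, hbw⟩ := hSyl m n hyp s hs hsm w
    obtain ⟨hidxb, Sb, Ab, hSb, hAb, hAbc, hcard, ⟨j, hj⟩, hcopA⟩ := hStr m n hyp hNG s b hbPM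
    have hbPM' := hbPM
    obtain ⟨_, _, ⟨kb, hkb⟩, hbZ⟩ := hbPM'
    have hcb : ∀ y, Commute y b ↔ Commute y w := sb_cent_eq hmn0 hw hab hbw hidxb
    obtain ⟨S, hSbS⟩ := (IsPGroup.of_card hj).exists_le_sylow
    have hsq := hSq m n hyp hNG s hs hsm
    have hsm' := hsm
    obtain ⟨m', hm'⟩ := hsm'
    have hnm' : ¬ s ∣ m' := by
      rintro ⟨t, ht⟩
      apply hsq
      refine ⟨t, ?_⟩
      rw [hm', ht]
      ring
    have hnn : ¬ s ∣ n :=
      (Nat.Prime.coprime_iff_not_dvd hs).1 (Nat.Coprime.coprime_dvd_left hsm hcopmn)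
    have hnA : ¬ s ∣ Nat.card Ab := (Nat.Prime.coprime_iff_not_dvd hs).1 hcopA.symm
    have hG : Nat.card G = s ^ (j + 1) * (Nat.card Ab * m' * n) := by
      rw [← hcard, hj, hm']
      ring
    have hc0 : Nat.card Ab * m' * n ≠ 0 := by
      intro h0
      rw [h0, mul_zero] at hG
      exact Nat.card_pos.ne' hG
    have hnc : ¬ s ∣ Nat.card Ab * m' * n := by
      intro h
      rcases (hs.dvd_mul).1 h with h | h
      · rcases (hs.dvd_mul).1 h with h | h
        · exact hnA h
        · exact hnm' h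
      · exact hnn h
    have hfac : (Nat.card G).factorization s = j + 1 := by
      rw [hG, Nat.factorization_mul (pow_ne_zero _ hs.ne_zero) hc0, Finsupp.add_apply,
        hs.factorization_pow, Finsupp.single_eq_same, Nat.factorization_eq_zero_of_not_dvd hnc,
        add_zero]
    have hScard : Nat.card (S : Subgroup G) = s ^ (j + 1) := by
      rw [S.card_eq_multiplicity, hfac]
    have hrel : Sb.relIndex (S : Subgroup G) = s := by
      have h1 := Subgroup.relIndex_mul_relIndex (⊥ : Subgroup G) Sb (S : Subgroup G) bot_le hSbS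
      rw [Subgroup.relIndex_bot_left, Subgroup.relIndex_bot_left, hj, hScard, pow_succ] at h1
      exact Nat.eq_of_mul_eq_mul_left (pow_pos hs.pos j) h1
    have hnorm : (Sb.subgroupOf (S : Subgroup G)).Normal := by
      apply Subgroup.normal_of_index_eq_minFac_card
      rw [hScard, Nat.pow_minFac (Nat.succ_ne_zero j), hs.minFac_eq]
      exact hrel
    have hconjSb : ∀ σ ∈ (S : Subgroup G), ∀ v ∈ Sb, σ * v * σ⁻¹ ∈ Sb := by
      intro σ hσ v hv
      have h1 := hnorm.conj_mem ⟨v, hSbS hv⟩ (Subgroup.mem_subgroupOf.2 hv) ⟨σ, hσ⟩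
      have h2 := Subgroup.mem_subgroupOf.1 h1
      simpa using h2
    have hbSb : b ∈ Sb := (hSb b).2 ⟨Commute.refl b, kb, hkb⟩
    refine ⟨S, fun σ hσ => ?_⟩
    rw [Subgroup.mem_normalizer_iff]
    intro h
    have hb'Sb := hconjSb σ hσ b hbSb
    have hb'b : Commute (σ * b * σ⁻¹) b := ((hSb _).1 hb'Sb).1
    have hb'w : Commute (σ * b * σ⁻¹) w := (hcb _).1 hb'b
    have hb'PM : PM m s (σ * b * σ⁻¹) := by
      refine ⟨hs, hsm, ⟨kb, ?_⟩, fun hz => hbZ ?_⟩
      · rw [← hkb]
        exact orderOf_injective (MulAut.conj σ).toMonoidHom (MulEquiv.injective _) b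
      · have hn : (Subgroup.center G).Normal := inferInstance
        have h1 := hn.conj_mem _ hz σ⁻¹
        simpa [mul_assoc] using h1
    have hidxb' : idx (σ * b * σ⁻¹) = m * n := (hStr m n hyp hNG s _ hb'PM).1
    have hcb' : ∀ y, Commute y (σ * b * σ⁻¹) ↔ Commute y w :=
      sb_cent_eq hmn0 hw hab hb'w hidxb'
    rw [sb_mem_cent, sb_mem_cent, ← hcb h, ← hcb' (σ * h * σ⁻¹), Commute.conj_iff]
  -- Step 2: every prime divisor of `m` divides `|N : N ∩ C(x)|`
  have hNcard : Nat.card ↥((Subgroup.normalizer ((Subgroup.centralizer ({w} : Set G) : Subgroup G) : Set G)) ⊓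
      Subgroup.centralizer ({x} : Set G)) *
      (Subgroup.centralizer ({x} : Set G)).relIndex
        (Subgroup.normalizer ((Subgroup.centralizer ({w} : Set G) : Subgroup G) : Set G)) =
      Nat.card (Subgroup.normalizer ((Subgroup.centralizer ({w} : Set G) : Subgroup G) : Set G)) := by
    have h1 := Subgroup.relIndex_mul_relIndex (⊥ : Subgroup G)
      ((Subgroup.normalizer ((Subgroup.centralizer ({w} : Set G) : Subgroup G) : Set G)) ⊓ Subgroup.centralizer ({x} : Set G))
      (Subgroup.normalizer ((Subgroup.centralizer ({w} : Set G) : Subgroup G) : Set G)) bot_le inf_le_left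
    rwa [Subgroup.relIndex_bot_left, Subgroup.relIndex_bot_left,
      Subgroup.inf_relIndex_left] at h1
  have step2 : ∀ s : ℕ, s.Prime → s ∣ m → s ∣ (Subgroup.centralizer ({x} : Set G)).relIndex
      (Subgroup.normalizer ((Subgroup.centralizer ({w} : Set G) : Subgroup G) : Set G)) := by
    intro s hs hsm
    have : Fact s.Prime := ⟨hs⟩
    obtain ⟨S, hSN⟩ := step1 s hs hsm
    by_contra hnd
    have hSdvd : Nat.card (S : Subgroup G) ∣
        Nat.card (Subgroup.normalizer ((Subgroup.centralizer ({w} : Set G) : Subgroup G) : Set G)) := Subgroup.card_dvd_of_le hSN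
    rw [S.card_eq_multiplicity, ← hNcard] at hSdvd
    have hcop : (s ^ (Nat.card G).factorization s).Coprime
        ((Subgroup.centralizer ({x} : Set G)).relIndex
          (Subgroup.normalizer ((Subgroup.centralizer ({w} : Set G) : Subgroup G) : Set G))) :=
      Nat.Coprime.pow_left _ ((Nat.Prime.coprime_iff_not_dvd hs).2 hnd)
    have h1 := hcop.dvd_of_dvd_mul_right hSdvd
    have h2 : s ^ (Nat.card G).factorization s ∣
        Nat.card (Subgroup.centralizer ({x} : Set G)) :=
      h1.trans (Subgroup.card_dvd_of_le inf_le_right)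
    have h3 : s ^ ((Nat.card G).factorization s + 1) ∣ Nat.card G := by
      have h4 := Nat.mul_dvd_mul h2 hsm
      rw [← hKidx, Subgroup.card_mul_index, ← pow_succ] at h4
      exact h4
    exact Nat.pow_succ_factorization_not_dvd Nat.card_pos.ne' hs h3
  -- Step 3: `m` divides `|N : N ∩ C(x)|`
  have hsqf : Squarefree m := by
    rw [Nat.squarefree_iff_prime_squarefree]
    intro p hp hpp
    have hpm : p ∣ m := (dvd_mul_right p p).trans hpp
    exact hSq m n hyp hNG p hp hpm (by rw [sq]; exact hpp)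
  have hmdvd : m ∣ (Subgroup.centralizer ({x} : Set G)).relIndex
      (Subgroup.normalizer ((Subgroup.centralizer ({w} : Set G) : Subgroup G) : Set G)) := by
    rw [← Nat.prod_primeFactors_of_squarefree hsqf]
    apply Finset.prod_primes_dvd
    · intro p hp
      exact (Nat.prime_of_mem_primeFactors hp).prime
    · intro p hp
      exact step2 p (Nat.prime_of_mem_primeFactors hp) (Nat.dvd_of_mem_primeFactors hp)
  -- Step 4: equality
  have hR0 : (Subgroup.centralizer ({x} : Set G)).relIndex
      (Subgroup.normalizer ((Subgroup.centralizer ({w} : Set G) : Subgroup G) : Set G)) ≠ 0 := by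
    intro h0
    rw [h0, mul_zero] at hNcard
    exact Nat.card_pos.ne' hNcard.symm
  have hRle : (Subgroup.centralizer ({x} : Set G)).relIndex
      (Subgroup.normalizer ((Subgroup.centralizer ({w} : Set G) : Subgroup G) : Set G)) ≤ m := by
    have h1 := Subgroup.relIndex_le_of_le_right (H := Subgroup.centralizer ({x} : Set G))
      (K := (Subgroup.normalizer ((Subgroup.centralizer ({w} : Set G) : Subgroup G) : Set G))) (L := ⊤) le_top
      (by rw [Subgroup.relIndex_top_right, hKidx]; omega)
    rwa [Subgroup.relIndex_top_right, hKidx] at h1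
  have hReq : (Subgroup.centralizer ({x} : Set G)).relIndex
      (Subgroup.normalizer ((Subgroup.centralizer ({w} : Set G) : Subgroup G) : Set G)) = m :=
    le_antisymm hRle (Nat.le_of_dvd (Nat.pos_of_ne_zero hR0) hmdvd)
  -- Step 5: `G = N C(x)`
  have hstab : MulAction.stabilizer (Subgroup.normalizer ((Subgroup.centralizer ({w} : Set G) : Subgroup G) : Set G))
      (((1 : G) : G ⧸ Subgroup.centralizer ({x} : Set G))) =
      (Subgroup.centralizer ({x} : Set G)).subgroupOf
        (Subgroup.normalizer ((Subgroup.centralizer ({w} : Set G) : Subgroup G) : Set G)) := by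
    ext ν
    rw [Subgroup.mem_subgroupOf, MulAction.mem_stabilizer_iff]
    have h1 : ν • (((1 : G) : G ⧸ Subgroup.centralizer ({x} : Set G))) =
        (((ν : G) * 1 : G) : G ⧸ Subgroup.centralizer ({x} : Set G)) := rfl
    rw [h1, QuotientGroup.eq]
    simp
  have horb : MulAction.orbit (Subgroup.normalizer ((Subgroup.centralizer ({w} : Set G) : Subgroup G) : Set G))
      (((1 : G) : G ⧸ Subgroup.centralizer ({x} : Set G))) = Set.univ := by
    apply Set.eq_of_subset_of_ncard_le (Set.subset_univ _)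
    rw [Set.ncard_univ, ← MulAction.index_stabilizer, hstab, ← Subgroup.index_eq_card, hKidx]
    exact le_of_eq hReq.symm
  have hg : ((g : G) : G ⧸ Subgroup.centralizer ({x} : Set G)) ∈
      MulAction.orbit (Subgroup.normalizer ((Subgroup.centralizer ({w} : Set G) : Subgroup G) : Set G))
      (((1 : G) : G ⧸ Subgroup.centralizer ({x} : Set G))) := by
    rw [horb]
    exact Set.mem_univ _
  obtain ⟨ν, hν⟩ := hg
  have hνg : (ν : G)⁻¹ * g ∈ Subgroup.centralizer ({x} : Set G) := by
    have h1 : (((ν : G) * 1 : G) : G ⧸ Subgroup.centralizer ({x} : Set G)) =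
        ((g : G) : G ⧸ Subgroup.centralizer ({x} : Set G)) := hν
    rw [QuotientGroup.eq] at h1
    simpa using h1
  have hc : Commute ((ν : G)⁻¹ * g) x := sb_mem_cent.1 hνg
  have hgx : g * x * g⁻¹ = (ν : G) * x * (ν : G)⁻¹ := by
    have h1 : (ν : G)⁻¹ * g * x = x * ((ν : G)⁻¹ * g) := hc.eq
    calc g * x * g⁻¹ = (ν : G) * ((ν : G)⁻¹ * g * x) * g⁻¹ := by group
      _ = (ν : G) * (x * ((ν : G)⁻¹ * g)) * g⁻¹ := by rw [h1]
      _ = (ν : G) * x * (ν : G)⁻¹ := by group
  rw [hgx]
  have h1 := (Subgroup.mem_normalizer_iff.1 ν.2 x).1 (sb_mem_cent.2 hxw)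
  exact sb_mem_cent.1 h1

end Cfsg.Agent.Lib.Helper89.CS3
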