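import Mathlib
import Cfsg.Agent.Lib.Helper41.CS3.GoodDefs
import Cfsg.Agent.Lib.Helper89.CS3.StepB

/-!
# CS3 (S4284), part GOOD, package [G6C]

If `C(a)` is abelian of index `m`, `s ∣ m` is a prime and `s² ∤ m`, then some Sylow
`s`-subgroup of `G` normalizes `C(a)`.
-/

set_option autoImplicit false

namespace Cfsg.Agent.Lib.Helper89.CS3

open Cfsg.Agent.Lib.Helper81.CS3 Cfsg.Agent.Lib.Helper41.CS3

universe u

/-- [G6C] -/
theorem pkgG6c_of (hNC : Cfsg.Agent.Lib.Helper41.CS3.PkgNC.{u}) :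
    Cfsg.Agent.Lib.Helper41.CS3.PkgG6c.{u} := by
  intro G _ _ m n hyp s a hs hsm hixa hab hsq
  classical
  have : Fact s.Prime := ⟨hs⟩
  have hm1 : 1 < m := hyp.2.1
  have hn1 : 1 < n := hyp.2.2.1
  have hrange := hyp.2.2.2.2
  have hixa' : (Cn a).index = m := hixa
  -- a non-central element of `C(a)` has centralizer `C(a)`
  have key : ∀ c ∈ Cn a, c ∉ Subgroup.center G → Cn c = Cn a := by
    intro c hc hcz
    have hle : Cn a ≤ Cn c := by
      intro h hh
      rw [sb_mem_cent]
      exact hab h hh c hc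
    have hdvd : (Cn c).index ∣ m := by
      rw [← hixa']
      exact Subgroup.index_dvd_of_le hle
    have hmem : (Cn c).index ∈ ({1, m, m * n} : Set ℕ) := by
      rw [← hrange]
      exact ⟨c, rfl⟩
    have hixc : (Cn c).index = m := by
      rcases hmem with h1 | h1 | h1
      · exfalso
        apply hcz
        have htop : Cn c = ⊤ := Subgroup.index_eq_one.1 h1
        rw [Subgroup.mem_center_iff]
        intro g
        have hg : g ∈ Cn c := by
          rw [htop]
          exact Subgroup.mem_top g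
        exact (sb_mem_cent.1 hg).eq
      · exact h1
      · exfalso
        rw [Set.mem_singleton_iff] at h1
        rw [h1] at hdvd
        have h2 := Nat.le_of_dvd (by omega) hdvd
        nlinarith
    symm
    apply Subgroup.eq_of_le_of_card_ge hle
    have h1 := Subgroup.card_mul_index (Cn a)
    have h2 := Subgroup.card_mul_index (Cn c)
    rw [hixa'] at h1
    rw [hixc] at h2
    have h3 : Nat.card (Cn c) * m = Nat.card (Cn a) * m := by rw [h1, h2]
    exact le_of_eq (Nat.eq_of_mul_eq_mul_right (by omega) h3)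
  obtain ⟨b, hbH, ⟨kb, hkb⟩, hbZ⟩ := hNC m n hyp s hs hsm a
  -- a Sylow `s`-subgroup of `C(a)` containing `b`
  have hbp : IsPGroup s (Subgroup.zpowers (⟨b, hbH⟩ : ↥(Cn a))) := by
    apply IsPGroup.of_card (n := kb)
    rw [Nat.card_zpowers, ← hkb]
    exact Subgroup.orderOf_mk b hbH
  obtain ⟨P, hP⟩ := hbp.exists_le_sylow
  have hP0H : (P : Subgroup (Cn a)).map (Cn a).subtype ≤ Cn a := Subgroup.map_subtype_le _
  have hbP0 : b ∈ (P : Subgroup (Cn a)).map (Cn a).subtype :=
    ⟨⟨b, hbH⟩, hP (Subgroup.mem_zpowers _), rfl⟩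
  have hP0card : Nat.card ((P : Subgroup (Cn a)).map (Cn a).subtype) =
      s ^ (Nat.card (Cn a)).factorization s := by
    rw [Subgroup.card_map_of_injective (Subgroup.subtype_injective _), P.card_eq_multiplicity]
  -- the order of `G`
  have hsm' := hsm
  obtain ⟨m', hm'⟩ := hsm'
  have hnm' : ¬ s ∣ m' := by
    rintro ⟨t, ht⟩
    apply hsq
    refine ⟨t, ?_⟩
    rw [hm', ht]
    ring
  have hm'0 : m' ≠ 0 := by
    rintro rfl
    omega
  have hG : Nat.card G = Nat.card (Cn a) * s * m' := by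
    rw [← Subgroup.card_mul_index (Cn a), hixa', hm']
    ring
  have hfac : (Nat.card G).factorization s = (Nat.card (Cn a)).factorization s + 1 := by
    rw [hG, Nat.factorization_mul (Nat.mul_ne_zero Nat.card_pos.ne' hs.ne_zero) hm'0,
      Nat.factorization_mul Nat.card_pos.ne' hs.ne_zero, Finsupp.add_apply, Finsupp.add_apply,
      hs.factorization_self, Nat.factorization_eq_zero_of_not_dvd hnm', add_zero]
  obtain ⟨S, hP0S⟩ := (IsPGroup.of_card hP0card).exists_le_sylow
  have hScard : Nat.card (S : Subgroup G) = s ^ ((Nat.card (Cn a)).factorization s + 1) := by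
    rw [S.card_eq_multiplicity, hfac]
  have hrel : ((P : Subgroup (Cn a)).map (Cn a).subtype).relIndex (S : Subgroup G) = s := by
    have h1 := Subgroup.relIndex_mul_relIndex (⊥ : Subgroup G)
      ((P : Subgroup (Cn a)).map (Cn a).subtype) (S : Subgroup G) bot_le hP0S
    rw [Subgroup.relIndex_bot_left, Subgroup.relIndex_bot_left, hP0card, hScard, pow_succ] at h1
    exact Nat.eq_of_mul_eq_mul_left (pow_pos hs.pos _) h1
  have hnorm : (((P : Subgroup (Cn a)).map (Cn a).subtype).subgroupOf (S : Subgroup G)).Normal := by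
    apply Subgroup.normal_of_index_eq_minFac_card
    rw [hScard, Nat.pow_minFac (Nat.succ_ne_zero _), hs.minFac_eq]
    exact hrel
  have hconj : ∀ σ ∈ (S : Subgroup G), ∀ v ∈ (P : Subgroup (Cn a)).map (Cn a).subtype,
      σ * v * σ⁻¹ ∈ (P : Subgroup (Cn a)).map (Cn a).subtype := by
    intro σ hσ v hv
    have h1 := hnorm.conj_mem ⟨v, hP0S hv⟩ (Subgroup.mem_subgroupOf.2 hv) ⟨σ, hσ⟩
    have h2 := Subgroup.mem_subgroupOf.1 h1
    simpa using h2
  refine ⟨S, fun σ hσ h hh => ?_⟩
  have hb' : σ * b * σ⁻¹ ∈ Cn a := hP0H (hconj σ hσ b hbP0)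
  have hb'Z : σ * b * σ⁻¹ ∉ Subgroup.center G := by
    intro hz
    apply hbZ
    have hn : (Subgroup.center G).Normal := inferInstance
    have h1 := hn.conj_mem _ hz σ⁻¹
    simpa [mul_assoc] using h1
  have h1 : Cn (σ * b * σ⁻¹) = Cn a := key _ hb' hb'Z
  have h2 : Cn b = Cn a := key b hbH hbZ
  rw [← h1, sb_mem_cent, Commute.conj_iff, ← sb_mem_cent]
  have h3 : h ∈ Cn b := by
    rw [h2]
    exact hh
  exact h3

end Cfsg.Agent.Lib.Helper89.CS3
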